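import Cfsg.Agent.ODD.BaseCore
import Cfsg.Agent.ODD.BG14.Signalizer

/-!
# B & G, Corollaries 14.8 - 14.10, from the statement of Theorem 14.7
-/

set_option autoImplicit false
set_option linter.all false
open Cfsg CL.MSS CL.BG

namespace CL.BG

variable {G : Type*} [Group G] [Finite G]

open S14 Subgroup

namespace S14p

/-- The statement of B & G, Theorem 14.7. -/
def Emb (G : Type*) [Group G] : Prop :=
  ∀ {M K : Subgroup G}, MaxP M → IsPiHallOf (kappa M) K M →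
    ∃ Ms : Subgroup G, (MaxP Ms ∧ ¬ ConjIn ⊤ M Ms) ∧
      /- a -/ (∀ X : Subgroup G, X ≤ K → (#|X|).Prime → UniqMax 𝐂(X) Ms) ∧
      /- b -/ (IsPiHallOf (kappa Ms) (sigmaCore M ⊓ 𝐂(K)) Ms ∧
        IsPiHallOf (sigma M) (sigmaCore M ⊓ 𝐂(K)) Ms) ∧
      /- c -/ (sigmaCore Ms ⊓ 𝐂(sigmaCore M ⊓ 𝐂(K)) = K ∧ kappa M = tau1 M) ∧
      /- d -/ (IsCyclic ↥(K ⊔ (sigmaCore M ⊓ 𝐂(K))) ∧ M ⊓ Ms = K ⊔ (sigmaCore M ⊓ 𝐂(K)) ∧
        (∀ x ∈ K, x ≠ 1 → M ⊓ 𝐂₁(x) = K ⊔ (sigmaCore M ⊓ 𝐂(K))) ∧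
        (∀ y ∈ sigmaCore M ⊓ 𝐂(K), y ≠ 1 → Ms ⊓ 𝐂₁(y) = K ⊔ (sigmaCore M ⊓ 𝐂(K))) ∧
        ∀ x ∈ K, x ≠ 1 → ∀ y ∈ sigmaCore M ⊓ 𝐂(K), y ≠ 1 →
          𝐂₁(x * y) = K ⊔ (sigmaCore M ⊓ 𝐂(K))) ∧
      /- e -/ (NormedTI (cyclicTIset K (sigmaCore M ⊓ 𝐂(K))) (K ⊔ (sigmaCore M ⊓ 𝐂(K))) ∧
        (∀ g : G, g ∉ M → Disjoint (cyclicTIset K (sigmaCore M ⊓ 𝐂(K))) (g •ᶜ M : Subgroup G)) ∧
        Nat.card G < 2 * (classSupport (cyclicTIset K (sigmaCore M ⊓ 𝐂(K))) ⊤).ncard) ∧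
      /- f -/ ((MaxP2 M ∧ (#|K|).Prime) ∨ (MaxP2 Ms ∧ (#|sigmaCore M ⊓ 𝐂(K)|).Prime)) ∧
      /- g -/ (∀ H : Subgroup G, MaxP H → ConjIn ⊤ M H ∨ ConjIn ⊤ Ms H) ∧
      /- h -/ SDProd ⁅M, M⁆ K M

theorem maxP_of_kappa_elt {M : Subgroup G} (hM : IsCoatom M) {y : G} (hy : y ∈ M) (h1 : y ≠ 1)
    (hk : PiElt (kappa M) y) : MaxP M :=
  ⟨hM, fun h => h1 (hk.eq_one (h.piElt hy))⟩

omit [Finite G] in
theorem mem_classSupport_conj {X : Set G} {a : G} (g : G) :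
    g * a * g⁻¹ ∈ classSupport X ⊤ ↔ a ∈ classSupport X ⊤ := by
  constructor
  · rintro ⟨h, -, x, hx, e⟩
    refine ⟨g⁻¹ * h, mem_top _, x, hx, ?_⟩
    calc a = g⁻¹ * (g * a * g⁻¹) * g := by group
      _ = _ := by rw [e]; group
  · rintro ⟨h, -, x, hx, rfl⟩
    exact ⟨g * h, mem_top _, x, hx, by group⟩

omit [Finite G] in
theorem mem_classSupport_self {X : Set G} {a : G} (h : a ∈ X) : a ∈ classSupport X ⊤ :=
  ⟨1, mem_top _, a, h, by group⟩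

omit [Finite G] in
theorem cyclicTIset_comm (A B : Subgroup G) : cyclicTIset A B = cyclicTIset B A := by
  rw [cyclicTIset, cyclicTIset, sup_comm, Set.union_comm]

omit [Finite G] in
theorem mul_mem_cyclicTIset {A B : Subgroup G} (h : A ⊓ B = ⊥) {a b : G} (ha : a ∈ A)
    (ha1 : a ≠ 1) (hb : b ∈ B) (hb1 : b ≠ 1) : a * b ∈ cyclicTIset A B := by
  refine ⟨mul_mem (mem_sup_left ha) (mem_sup_right hb), fun h' => h'.elim (fun h1 => hb1 ?_)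
    fun h1 => ha1 ?_⟩
  · exact mem_bot.1 (h ▸ (⟨(mul_mem_cancel_left ha).1 h1, hb⟩ : b ∈ A ⊓ B))
  · exact mem_bot.1 (h ▸ (⟨ha, (mul_mem_cancel_right hb).1 h1⟩ : a ∈ A ⊓ B))

theorem mem_class_cyclicTIset (hG : IsMinSimpleOddOrder G) {M K L : Subgroup G} (hM : MaxP M)
    (hK : IsPiHallOf (kappa M) K M) (hL : ConjIn ⊤ M L) {y z : G} (hy : y ∈ sigmaCore L)
    (hy1 : y ≠ 1) (hz : z ∈ L ⊓ 𝐂₁(y)) (hz1 : z ≠ 1) (hk : PiElt (kappa L) z) :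
    y * z ∈ classSupport (cyclicTIset K (sigmaCore M ⊓ 𝐂(K))) ⊤ := by
  obtain ⟨g, -, rfl⟩ := hL
  rw [kappaJ] at hk
  have h1 : g⁻¹ * z * g⁻¹⁻¹ ∈ M := by rw [inv_inv]; exact mem_cj.1 hz.1
  obtain ⟨m, hm, h2⟩ := hK.conj_le (msol hG hM.1) (zpowers_le.2 h1)
    (piElt_iff_zpowers.1 (hk.conj g⁻¹))
  set c := m * g⁻¹ with hc
  have h3 : c * z * c⁻¹ ∈ K := by
    have := h2 (conj_mem_cj (mem_zpowers _))
    rwa [show m * (g⁻¹ * z * g⁻¹⁻¹) * m⁻¹ = c * z * c⁻¹ by rw [hc]; group] at this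
  have h4 : c * y * c⁻¹ ∈ sigmaCore M := by
    rw [Ms_cj] at hy
    have := (mem_normalizer_iff.1 (H39.Ms_norm M hm) _).1 (mem_cj.1 hy)
    rwa [show m * (g⁻¹ * y * g) * m⁻¹ = c * y * c⁻¹ by rw [hc]; group] at this
  have h5 : c * z * c⁻¹ ≠ 1 := (conj_ne_one c).2 hz1
  obtain ⟨⟨U, -, hpr, -⟩, -⟩ := Ptype_structure hG hM hK
  have h6 : c * y * c⁻¹ ∈ sigmaCore M ⊓ 𝐂(K) := by
    rw [← hpr _ h3 h5]
    refine ⟨h4, mem_cent1_iff.2 ?_⟩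
    calc c * y * c⁻¹ * (c * z * c⁻¹) = c * (y * z) * c⁻¹ := by group
      _ = _ := by rw [← mem_cent1_iff.1 hz.2]; group
  rw [← mem_classSupport_conj c, cyclicTIset_comm,
    show c * (y * z) * c⁻¹ = c * y * c⁻¹ * (c * z * c⁻¹) by group]
  exact mem_classSupport_self (mul_mem_cyclicTIset
    (inf_comm K _ ▸ (dprod_kappa hK.piGrp).1.inf_eq_bot) h6 ((conj_ne_one c).2 hy1) h3 h5)

omit [Finite G] in
theorem mem_class_support_of_sigR {x g : G} (hx : EllSigmaOne x) (h : x⁻¹ * g ∈ sigR x) :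
    ∃ L : Subgroup G, IsCoatom L ∧ g ∈ classSupport (sigmaSupport L) ⊤ := by
  obtain ⟨L, hL⟩ := hx.2
  exact ⟨L, hL.1, mem_classSupport_self ⟨x, hL.2, hx.1, mem_cover_iff.2 h⟩⟩

/-- B & G, Corollary 14.8, first part. -/
theorem P1type_trans_of (hG : IsMinSimpleOddOrder G) (hE : Emb G) {M H : Subgroup G} (hM : MaxP1 M)
    (hH : MaxP1 H) : ConjIn ⊤ M H := by
  obtain ⟨K, hK⟩ := ex_kappa_Hall hG hM.1.1
  obtain ⟨Ms, -, -, -, -, -, -, hf, hg, -⟩ := hE hM.1 hK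
  refine (hg H hH.1).resolve_right ?_
  rintro ⟨g, -, rfl⟩
  exact (hf.resolve_left fun h => h.1.2 hM.2).1.2 ((P1typeJ Ms g).1 hH).2

/-- B & G, Corollary 14.8, second part. -/
theorem Ptype_trans_of (hG : IsMinSimpleOddOrder G) (hE : Emb G) {M : Subgroup G} (hM : MaxP M) :
    ∃ Ms : Subgroup G, (MaxP Ms ∧ ¬ ConjIn ⊤ M Ms) ∧
      ∀ H : Subgroup G, MaxP H → ConjIn ⊤ M H ∨ ConjIn ⊤ Ms H := by
  obtain ⟨K, hK⟩ := ex_kappa_Hall hG hM.1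
  obtain ⟨Ms, h, -, -, -, -, -, -, hg, -⟩ := hE hM hK
  exact ⟨Ms, h, hg⟩

/-- B & G, Corollary 14.9 (together with `class_support_sigma_disjoint` and
`one_not_mem_class_support_sigma`). -/
theorem mFT_partition_of (hG : IsMinSimpleOddOrder G) (hE : Emb G) :
    ((∀ M : Subgroup G, ¬ MaxP M) → ∀ g : G, g ≠ 1 →
        ∃ M : Subgroup G, IsCoatom M ∧ g ∈ classSupport (sigmaSupport M) ⊤) ∧
      ∀ M K : Subgroup G, MaxP M → IsPiHallOf (kappa M) K M →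
        (∀ g : G, g ≠ 1 → g ∈ classSupport (cyclicTIset K (sigmaCore M ⊓ 𝐂(K))) ⊤ ∨
          ∃ L : Subgroup G, IsCoatom L ∧ g ∈ classSupport (sigmaSupport L) ⊤) ∧
        ∀ L : Subgroup G, IsCoatom L →
          Disjoint (classSupport (cyclicTIset K (sigmaCore M ⊓ 𝐂(K))) ⊤)
            (classSupport (sigmaSupport L) ⊤) := by
  refine ⟨fun hP g hg => ?_, fun M K hM hK => ⟨fun g hg => ?_, fun L hL => ?_⟩⟩
  · rcases sigma_decomposition_dichotomy hG hg with ⟨x, hx, h⟩ | ⟨y, -, M, hM, h1, h2, h3⟩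
    · exact mem_class_support_of_sigR hx h
    · exact absurd (maxP_of_kappa_elt hM.1 h1.1 h2 h3) (hP M)
  · rcases sigma_decomposition_dichotomy hG hg with ⟨x, hx, h⟩ | ⟨y, hy, L, hL, h1, h2, h3⟩
    · exact Or.inr (mem_class_support_of_sigR hx h)
    left
    obtain ⟨Ms, ⟨hMs, -⟩, -, ⟨hKs, -⟩, ⟨hc, -⟩, -, -, -, hg', -⟩ := hE hM hK
    rw [← mul_inv_cancel_left y g]
    rcases hg' L (maxP_of_kappa_elt hL.1 h1.1 h2 h3) with h | h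
    · exact mem_class_cyclicTIset hG hM hK h hL.2 hy.1 h1 h2 h3
    · have := mem_class_cyclicTIset hG hMs hKs h hL.2 hy.1 h1 h2 h3
      rwa [hc, cyclicTIset_comm] at this
  · refine Set.disjoint_left.2 ?_
    rintro _ ⟨g, -, z, hz, rfl⟩ h
    rw [mem_classSupport_conj, mem_class_support_sigma hG hL] at h
    obtain ⟨L', hL', x, hx, hx1, x', hx', he⟩ := h
    obtain ⟨y, hy, k, hk, e⟩ := (dprod_kappa (M := M) hK.piGrp).1.symm.exists_mul hz.1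
    refine sigma_decomposition_dichotomy_excl hG (Msigma_ell1 (coatom_of_conj hL hL') hx hx1) hx'
      (M := M) (y := y) (y' := k) ⟨hM.1, hy.1⟩ (fun h => hz.2 (Or.inl ?_))
      ⟨hK.1 hk, mem_cent1_comm.1 (cent_le_cent1 hk hy.2)⟩ (fun h => hz.2 (Or.inr ?_))
      (hK.piGrp.piElt hk) (he ▸ e)
    · rw [e, h, one_mul]; exact hk
    · rw [e, h, mul_one]; exact hy

/-- B & G, Corollary 14.10. -/
theorem ell_sigma_leq_2_of (hG : IsMinSimpleOddOrder G) (hE : Emb G) (g : G) :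
    (sigmaDecomposition g).ncard ≤ 2 := by
  by_cases hg : g = 1
  · rw [(sigma_decomposition_eq_empty_iff hG).2 hg, Set.ncard_empty]; exact Nat.zero_le _
  rcases sigma_decomposition_dichotomy hG hg with ⟨x, hx, h⟩ | ⟨y, hy, M, hM, h1, h2, h3⟩
  · rw [← mul_inv_cancel_left x g, sigma_cover_decomposition hG hx h]
    exact (Set.ncard_insert_le _ _).trans (Nat.succ_le_succ
      ((Set.ncard_le_ncard Set.sdiff_subset).trans (Set.ncard_singleton _).le))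
  · obtain ⟨K, hK, hle⟩ := Hall_superset (msol hG hM.1) (zpowers_le.2 h1.1)
      (piElt_iff_zpowers.1 h3)
    obtain ⟨Ms, ⟨hMs, -⟩, -, -, ⟨hc, -⟩, -⟩ :=
      hE (maxP_of_kappa_elt hM.1 h1.1 h2 h3) hK
    have h4 : y⁻¹ * g ∈ sigmaCore Ms := (hc.ge (hle (mem_zpowers _))).1
    have h5 : Commute (y⁻¹ * g) y := mem_cent1_iff.1 h1.2
    rw [← mul_inv_cancel_left y g, ← h5.eq, decomposition_mul hG hM.1 (kappa_elt_sigma' h3)
      (Ms_elt hM.2) hy.1 h5, ell1_decomposition hG (Msigma_ell1 hMs.1 h4 h2)]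
    exact (Set.ncard_insert_le _ _).trans (Nat.succ_le_succ (Set.ncard_singleton _).le)

end S14p

end CL.BG
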